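import Cfsg.Prelude.Def_Spor_J3
import Cfsg.Agent.Lib.F4.Basic
import Cfsg.Agent.Lib.J3Lines.Tab

/-!
# Vectors of `F₄⁹` as natural numbers, and the generators of `3.J3`
-/

set_option autoImplicit false

namespace Cfsg.Agent.Lib.J3Lines

open Cfsg.Spor Matrix
open scoped MatrixGroups
open _root_.Cfsg.Agent.Lib.PermComp.Core (force force_eq)
open _root_.Cfsg.Agent.Lib.F4.Basic

/-- The number of an element of the field with nine elements. -/
def idx (z : F9) : ℕ := z.1.val * 3 + z.2.val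

theorem idx_lt : ∀ z : F9, idx z < 9 := by decide

theorem idx_inj : ∀ w z : F9, idx w = idx z → w = z := by decide

/-- The element with a given number. -/
def zOf (k : ℕ) : F9 := (((k / 3 : ℕ) : ZMod 3), ((k % 3 : ℕ) : ZMod 3))

theorem zOf_idx : ∀ z : F9, zOf (idx z) = z := by decide

/-- A digit in base four. -/
def dig (c k : ℕ) : ℕ := c / 4 ^ k % 4

theorem dig_lt (c k : ℕ) : dig c k < 4 := Nat.mod_lt _ (by norm_num)

theorem dig_xor (a b k : ℕ) : dig (a ^^^ b) k = dig a k ^^^ dig b k := by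
  unfold dig
  have h : (4 : ℕ) ^ k = 2 ^ (2 * k) := by rw [pow_mul]; norm_num
  rw [h, ← Nat.shiftRight_eq_div_pow, ← Nat.shiftRight_eq_div_pow, ← Nat.shiftRight_eq_div_pow,
    Nat.shiftRight_xor_distrib]
  exact Nat.xor_mod_two_pow (n := 2) ..

/-- Multiplication in the model of the field with four elements. -/
def mulD (a b : ℕ) : ℕ :=
  if a = 0 then 0 else if b = 0 then 0 else (a + b - 2) % 3 + 1

/-- A scalar multiple of a code. -/
def smul9 (d y : ℕ) : ℕ :=
  mulD d (dig y 0) + 4 * mulD d (dig y 1) + 16 * mulD d (dig y 2) + 64 * mulD d (dig y 3) +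
    256 * mulD d (dig y 4) + 1024 * mulD d (dig y 5) + 4096 * mulD d (dig y 6) +
    16384 * mulD d (dig y 7) + 65536 * mulD d (dig y 8)

theorem mulD_lt : ∀ a b, a < 4 → b < 4 → mulD a b < 4 := by
  intro a b ha hb
  interval_cases a <;> interval_cases b <;> decide

theorem dig_sum (x : ℕ → ℕ) (hx : ∀ i, x i < 4) (k : ℕ) (hk : k < 9) :
    dig (x 0 + 4 * x 1 + 16 * x 2 + 64 * x 3 + 256 * x 4 + 1024 * x 5 + 4096 * x 6 + 16384 * x 7 +
      65536 * x 8) k = x k := by
  have h0 := hx 0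
  have h1 := hx 1
  have h2 := hx 2
  have h3 := hx 3
  have h4 := hx 4
  have h5 := hx 5
  have h6 := hx 6
  have h7 := hx 7
  have h8 := hx 8
  interval_cases k <;> simp only [dig] <;> norm_num <;> omega

theorem dig_smul9 (d y k : ℕ) (hd : d < 4) (hk : k < 9) : dig (smul9 d y) k = mulD d (dig y k) :=
  dig_sum (fun i => mulD d (dig y i)) (fun i => mulD_lt _ _ hd (dig_lt _ _)) k hk

/-- The image of a code under the matrix with columns `cols`. -/
def applyD (cols : ℕ → ℕ) (x : ℕ) : ℕ :=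
  smul9 (dig x 0) (cols 0) ^^^ smul9 (dig x 1) (cols 1) ^^^ smul9 (dig x 2) (cols 2) ^^^
    smul9 (dig x 3) (cols 3) ^^^ smul9 (dig x 4) (cols 4) ^^^ smul9 (dig x 5) (cols 5) ^^^
    smul9 (dig x 6) (cols 6) ^^^ smul9 (dig x 7) (cols 7) ^^^ smul9 (dig x 8) (cols 8)

section
variable {F : Type} [Field F]

/-- The value of a digit. -/
def coef (ω : F) (d : ℕ) : F :=
  if d = 0 then 0 else if d = 1 then 1 else if d = 2 then ω else ω ^ 2

/-- The vector with a given code. -/
def vec (ω : F) (c : ℕ) : F9 → F := fun z => coef ω (dig c (idx z))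

theorem sum_F9 {M : Type*} [AddCommMonoid M] (f : F9 → M) :
    ∑ z, f z = f (0, 0) + f (0, 1) + f (0, 2) + f (1, 0) + f (1, 1) + f (1, 2) + f (2, 0) +
      f (2, 1) + f (2, 2) := by
  have h3 : ∀ g : ZMod 3 → M, ∑ a, g a = g 0 + g 1 + g 2 := fun g => Fin.sum_univ_three g
  rw [Fintype.sum_prod_type, h3]
  simp only [h3]
  abel

variable [Fintype F] {ω : F}

theorem coef_eq_emb (d : ℕ) (hd : d < 4) : coef ω d = emb ω ⟨d, hd⟩ := by
  interval_cases d <;> simp [coef]

theorem coef_xor (hF : Fintype.card F = 4) (hω : ω ^ 2 + ω + 1 = 0) {a b : ℕ} (ha : a < 4)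
    (hb : b < 4) : coef ω (a ^^^ b) = coef ω a + coef ω b := by
  have hab : a ^^^ b < 4 := Nat.xor_lt_two_pow (n := 2) ha hb
  rw [coef_eq_emb _ hab, coef_eq_emb _ ha, coef_eq_emb _ hb, ← emb_add hF hω]
  congr 1
  interval_cases a <;> interval_cases b <;> rfl

theorem coef_mulD (hF : Fintype.card F = 4) (hω : ω ^ 2 + ω + 1 = 0) {a b : ℕ} (ha : a < 4)
    (hb : b < 4) : coef ω (mulD a b) = coef ω a * coef ω b := by
  rw [coef_eq_emb _ (mulD_lt _ _ ha hb), coef_eq_emb _ ha, coef_eq_emb _ hb, ← emb_mul hF hω]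
  congr 1
  interval_cases a <;> interval_cases b <;> rfl

theorem vec_xor (hF : Fintype.card F = 4) (hω : ω ^ 2 + ω + 1 = 0) (a b : ℕ) :
    vec ω (a ^^^ b) = vec ω a + vec ω b := by
  funext z
  simp only [vec, Pi.add_apply, dig_xor]
  exact coef_xor hF hω (dig_lt _ _) (dig_lt _ _)

theorem vec_smul9 (hF : Fintype.card F = 4) (hω : ω ^ 2 + ω + 1 = 0) (d y : ℕ) (hd : d < 4) :
    vec ω (smul9 d y) = coef ω d • vec ω y := by
  funext z
  simp only [vec, Pi.smul_apply, smul_eq_mul]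
  rw [dig_smul9 _ _ _ hd (idx_lt z), coef_mulD hF hω hd (dig_lt _ _)]

/-- The image of a vector, from the columns. -/
theorem mulVec_vec (hF : Fintype.card F = 4) (hω : ω ^ 2 + ω + 1 = 0) (M : Matrix F9 F9 F)
    (cols : ℕ → ℕ) (hcol : ∀ z, (fun w => M w z) = vec ω (cols (idx z))) (x : ℕ) :
    M *ᵥ vec ω x = vec ω (applyD cols x) := by
  have hx : ∀ a b, vec ω (a ^^^ b) = vec ω a + vec ω b := vec_xor hF hω
  have hs : ∀ k y, vec ω (smul9 (dig x k) y) = coef ω (dig x k) • vec ω y :=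
    fun k y => vec_smul9 hF hω _ _ (dig_lt _ _)
  have hM : ∀ z w, M w z = vec ω (cols (idx z)) w := fun z w => congrFun (hcol z) w
  funext w
  simp only [applyD, hx, hs, Pi.add_apply, Pi.smul_apply, smul_eq_mul]
  simp only [Matrix.mulVec, dotProduct]
  rw [sum_F9]
  simp only [hM]
  have e : ∀ a b : ZMod 3, idx (a, b) = a.val * 3 + b.val := fun _ _ => rfl
  simp only [vec, e]
  have v0 : (0 : ZMod 3).val = 0 := rfl
  have v1 : (1 : ZMod 3).val = 1 := rfl
  have v2 : (2 : ZMod 3).val = 2 := rfl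
  simp only [v0, v1, v2]
  norm_num
  ring

end

end Cfsg.Agent.Lib.J3Lines
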