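import Cfsg.Agent.Lib.J3Lines.Orbit
import Cfsg.Agent.Lib.J3Lines.Data1

/-!
# The walk through the list number 1, generated by a script
-/

set_option Elab.async false

namespace Cfsg.Agent.Lib.J3Lines

theorem run1_0 : runB D1 23256 12 (1) (acc0 (code D1 0)) = A1_0 := by decide +kernel

theorem ne1_0 : A1_0 ≠ 0 := by decide +kernel

theorem run1_1 : runB D1 23256 12 (1 + 2 ^ 12) (A1_0) = A1_1 := by decide +kernel

theorem ne1_1 : A1_1 ≠ 0 := by decide +kernel

theorem run1_2 : runB D1 23256 12 (1 + 2 ^ 12 + 2 ^ 12) (A1_1) = A1_2 := by decide +kernel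

theorem ne1_2 : A1_2 ≠ 0 := by decide +kernel

theorem run1_3 : runB D1 23256 12 (1 + 2 ^ 12 + 2 ^ 12 + 2 ^ 12) (A1_2) = A1_3 := by decide +kernel

theorem ne1_3 : A1_3 ≠ 0 := by decide +kernel

theorem run1_4 : runB D1 23256 12 (1 + 2 ^ 12 + 2 ^ 12 + 2 ^ 12 + 2 ^ 12) (A1_3) = A1_4 := by decide +kernel

theorem ne1_4 : A1_4 ≠ 0 := by decide +kernel

theorem run1_5 : runB D1 23256 12 (1 + 2 ^ 12 + 2 ^ 12 + 2 ^ 12 + 2 ^ 12 + 2 ^ 12) (A1_4) = A1_5 := by decide +kernel

theorem ne1_5 : A1_5 ≠ 0 := by decide +kernel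

/-- The walk. -/
theorem tree1 : Tree D1 23256 A1_5 :=
  (((((((Partial.init D1 23256 (by norm_num)).next run1_0 ne1_0).next run1_1 ne1_1).next run1_2 ne1_2).next run1_3 ne1_3).next run1_4 ne1_4).next run1_5 ne1_5).tree (by norm_num)

/-- The final bit mask. -/
abbrev Y1 : Nat := A1_5

theorem code1_zero : code D1 0 = 1 := by decide +kernel

theorem inv1_0 : allR (invOK D1 23256 Y1) 11 (0 * 2 ^ 11) = true := by decide +kernel

theorem inv1_1 : allR (invOK D1 23256 Y1) 11 (1 * 2 ^ 11) = true := by decide +kernel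

theorem inv1_2 : allR (invOK D1 23256 Y1) 11 (2 * 2 ^ 11) = true := by decide +kernel

theorem inv1_3 : allR (invOK D1 23256 Y1) 11 (3 * 2 ^ 11) = true := by decide +kernel

theorem inv1_4 : allR (invOK D1 23256 Y1) 11 (4 * 2 ^ 11) = true := by decide +kernel

theorem inv1_5 : allR (invOK D1 23256 Y1) 11 (5 * 2 ^ 11) = true := by decide +kernel

theorem inv1_6 : allR (invOK D1 23256 Y1) 11 (6 * 2 ^ 11) = true := by decide +kernel

theorem inv1_7 : allR (invOK D1 23256 Y1) 11 (7 * 2 ^ 11) = true := by decide +kernel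

theorem inv1_8 : allR (invOK D1 23256 Y1) 11 (8 * 2 ^ 11) = true := by decide +kernel

theorem inv1_9 : allR (invOK D1 23256 Y1) 11 (9 * 2 ^ 11) = true := by decide +kernel

theorem inv1_10 : allR (invOK D1 23256 Y1) 11 (10 * 2 ^ 11) = true := by decide +kernel

theorem inv1_11 : allR (invOK D1 23256 Y1) 11 (11 * 2 ^ 11) = true := by decide +kernel

theorem inv1 : ∀ m, m < 12 → allR (invOK D1 23256 Y1) 11 (m * 2 ^ 11) = true := by
  intro m hm
  interval_cases m
  · exact inv1_0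
  · exact inv1_1
  · exact inv1_2
  · exact inv1_3
  · exact inv1_4
  · exact inv1_5
  · exact inv1_6
  · exact inv1_7
  · exact inv1_8
  · exact inv1_9
  · exact inv1_10
  · exact inv1_11

end Cfsg.Agent.Lib.J3Lines
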