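import Cfsg.Agent.Lib.J3Lines.Basic

/-!
# The generators of `3.J3` and the tables
-/

set_option autoImplicit false
set_option linter.unusedSectionVars false

namespace Cfsg.Agent.Lib.J3Lines

open Cfsg.Spor Matrix
open scoped MatrixGroups
open _root_.Cfsg.Agent.Lib.PermComp.Core (force force_eq)
open _root_.Cfsg.Agent.Lib.F4.Basic

/-- The digit of a power of `ω`. -/
def wp (n : ZMod 3) : ℕ := if n = 0 then 1 else if n = 1 then 2 else 3

/-- The entries of `A_Z`. -/
def cA (Z w z : F9) : ℕ := if w = z then wp (Z.1 * w.1 + Z.2 * w.2) else 0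

/-- The entries of `E_Z`. -/
def cE (Z w z : F9) : ℕ := if w = z then wp ((Z.1 - w.1) ^ 2 + (Z.2 - w.2) ^ 2) else 0

/-- The coefficient of `D_Z`. -/
def cLam (Z z : F9) : ℕ :=
  if z = 0 then 1
  else if F9.div Z z = F9.I - F9.one then 2
  else if F9.div Z z = -F9.I - F9.one then 3
  else 1

/-- The entries of `D_Z`. -/
def cD (Z w z : F9) : ℕ := if w = z + Z then cLam Z z else 0

/-- The entries of `B_Z`. -/
def cB (Z w z : F9) : ℕ := if w = F9.mul Z z then 1 else 0

/-- The entries of `C_Z`. -/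
def cC (Z w z : F9) : ℕ :=
  if z = 0 then (if w = 0 then 1 else 0)
  else if w = -F9.div Z z ∨ w = F9.mul F9.I (F9.div Z z) ∨ w = -F9.mul F9.I (F9.div Z z) then 1
  else 0

/-- The entries of the matrix number `j`. -/
def mf (j : ℕ) (w z : F9) : ℕ :=
  if j < 9 then cA (zOf j) w z
  else if j < 18 then cE (zOf (j - 9)) w z
  else if j < 27 then cD (zOf (j - 18)) w z
  else if j < 36 then cB (zOf (j - 27)) w z
  else if j < 45 then cC (zOf (j - 36)) w z
  else if w = z then 2 else 0

/-- A column of the matrix number `j`, read off the tables. -/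
noncomputable def colOf (j k : ℕ) : ℕ := entT (tabOf j) (64 * (k / 3) + 4 ^ (k % 3))

set_option maxRecDepth 100000 in
theorem cols_ok : ∀ j : Fin 46, ∀ w z : F9, dig (colOf j (idx z)) (idx w) = mf j w z := by
  decide +kernel

theorem tab_ok : ∀ j : Fin 46, ∀ i : Fin 64,
    entT (tabOf j) i = applyD (colOf j) i ∧
    entT (tabOf j) (64 + i) = applyD (colOf j) (i * 64) ∧
    entT (tabOf j) (128 + i) = applyD (colOf j) (i * 4096) := by
  decide +kernel

section
variable {F : Type} [Field F]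

/-- The matrix number `j`. -/
def genM (ω : F) (j : ℕ) : Matrix F9 F9 F :=
  if j < 9 then j3A F ω (zOf j)
  else if j < 18 then j3E F ω (zOf (j - 9))
  else if j < 27 then j3D F ω (zOf (j - 18))
  else if j < 36 then j3B F (zOf (j - 27))
  else if j < 45 then j3C F (zOf (j - 36))
  else Matrix.diagonal fun _ => ω

variable {ω : F}

theorem coef_wp (n : ZMod 3) : omegaPow F ω n = coef ω (wp n) := by
  have h3 : ∀ n : ZMod 3, n = 0 ∨ n = 1 ∨ n = 2 := by decide
  rcases h3 n with rfl | rfl | rfl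
  · simp [omegaPow, wp, coef]
  · have e4 : (1 : ZMod 3).val = 1 := rfl
    simp [omegaPow, wp, coef, e4]
  · have e1 : (2 : ZMod 3) ≠ 0 := by decide
    have e2 : (2 : ZMod 3) ≠ 1 := by decide
    have e3 : (2 : ZMod 3).val = 2 := rfl
    simp [omegaPow, wp, coef, e1, e2, e3]

theorem genM_entry (hs : ω ^ 3 = 1) (j : ℕ) (w z : F9) : genM ω j w z = coef ω (mf j w z) := by
  have hc0 : coef ω 0 = 0 := by simp [coef]
  have hc1 : coef ω 1 = 1 := by simp [coef]
  have hc2 : coef ω 2 = ω := by simp [coef]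
  have hc3 : coef ω 3 = ω ^ 2 := by simp [coef]
  unfold genM mf
  split_ifs
  · unfold j3A cA
    rw [Matrix.diagonal_apply]
    split_ifs with h
    · subst h
      exact coef_wp _
    · exact hc0.symm
  · unfold j3E cE
    rw [Matrix.diagonal_apply]
    split_ifs with h
    · subst h
      exact coef_wp _
    · exact hc0.symm
  · show (if w = z + _ then j3Lam F ω _ z else 0) = coef ω (if w = z + _ then cLam _ z else 0)
    split_ifs with h
    · unfold j3Lam cLam
      split_ifs
      · exact hc1.symm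
      · exact hc2.symm
      · exact hc3.symm
      · exact hc1.symm
    · exact hc0.symm
  · show (if w = F9.mul _ z then (1 : F) else 0) = coef ω (if w = F9.mul _ z then 1 else 0)
    split_ifs
    · exact hc1.symm
    · exact hc0.symm
  · show (if z = 0 then (if w = 0 then (1 : F) else 0)
      else if w = -F9.div _ z ∨ w = F9.mul F9.I (F9.div _ z) ∨ w = -F9.mul F9.I (F9.div _ z) then 1
      else 0) = coef ω (if z = 0 then (if w = 0 then 1 else 0)
      else if w = -F9.div _ z ∨ w = F9.mul F9.I (F9.div _ z) ∨ w = -F9.mul F9.I (F9.div _ z) then 1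
      else 0)
    split_ifs
    · exact hc1.symm
    · exact hc0.symm
    · exact hc1.symm
    · exact hc0.symm
  · rw [Matrix.diagonal_apply]
    simp_all
  · rw [Matrix.diagonal_apply]
    simp_all

variable [Fintype F]

/-- The columns of the matrix number `j`. -/
theorem genM_col (hs : ω ^ 3 = 1) {j : ℕ} (hj : j < 46) (z : F9) :
    (fun w => genM ω j w z) = vec ω (colOf j (idx z)) := by
  funext w
  rw [genM_entry hs, vec, cols_ok ⟨j, hj⟩ w z]

theorem cube_eq_one (hF : Fintype.card F = 4) (hω : ω ^ 2 + ω + 1 = 0) : ω ^ 3 = 1 := by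
  have h2 := two_eq_zero hF
  linear_combination (ω - 1) * hω

theorem ent_lt (T i : ℕ) : entT T i < 2 ^ 18 :=
  Nat.and_lt_two_pow _ (by norm_num : (262143 : ℕ) < 2 ^ 18)

theorem fast_eq (j c : ℕ) : fast j c = entT (tabOf j) (c % 64) ^^^ entT (tabOf j) (64 + c / 64 % 64) ^^^
    entT (tabOf j) (128 + c / 4096) := by
  unfold fast
  rw [force_eq]
  rfl

theorem fast_lt (j c : ℕ) : fast j c < 2 ^ 18 := by
  rw [fast_eq]
  exact Nat.xor_lt_two_pow (Nat.xor_lt_two_pow (ent_lt _ _) (ent_lt _ _)) (ent_lt _ _)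

/-- A code is the sum of its three parts. -/
theorem vec_split (c : ℕ) (hc : c < 2 ^ 18) :
    vec ω c = vec ω (c % 64) + vec ω (c / 64 % 64 * 64) + vec ω (c / 4096 * 4096) := by
  have hc0 : coef ω 0 = 0 := by simp [coef]
  have h : ∀ k, k < 9 → coef ω (dig c k) = coef ω (dig (c % 64) k) + coef ω (dig (c / 64 % 64 * 64) k) +
      coef ω (dig (c / 4096 * 4096) k) := by
    intro k hk
    have hc' : c < 262144 := by simpa using hc
    have : (k < 3 ∧ dig c k = dig (c % 64) k ∧ dig (c / 64 % 64 * 64) k = 0 ∧ dig (c / 4096 * 4096) k = 0) ∨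
        (3 ≤ k ∧ k < 6 ∧ dig c k = dig (c / 64 % 64 * 64) k ∧ dig (c % 64) k = 0 ∧ dig (c / 4096 * 4096) k = 0) ∨
        (6 ≤ k ∧ dig c k = dig (c / 4096 * 4096) k ∧ dig (c % 64) k = 0 ∧ dig (c / 64 % 64 * 64) k = 0) := by
      interval_cases k <;> simp only [dig] <;> norm_num <;> omega
    rcases this with ⟨_, h1, h2, h3⟩ | ⟨_, _, h1, h2, h3⟩ | ⟨_, h1, h2, h3⟩ <;> rw [h1, h2, h3, hc0] <;> simp
  funext z
  exact h _ (idx_lt z)

/-- The action of the matrices on the codes. -/
theorem fast_sound (hF : Fintype.card F = 4) (hω : ω ^ 2 + ω + 1 = 0) {j c : ℕ} (hj : j < 46)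
    (hc : c < 2 ^ 18) : genM ω j *ᵥ vec ω c = vec ω (fast j c) := by
  have hs := cube_eq_one hF hω
  have hm := mulVec_vec hF hω (genM ω j) (colOf j) (genM_col hs hj)
  obtain ⟨h1, _, _⟩ := tab_ok ⟨j, hj⟩ ⟨c % 64, Nat.mod_lt _ (by norm_num)⟩
  obtain ⟨_, h2, _⟩ := tab_ok ⟨j, hj⟩ ⟨c / 64 % 64, Nat.mod_lt _ (by norm_num)⟩
  have hc' : c < 262144 := by simpa using hc
  obtain ⟨_, _, h3⟩ := tab_ok ⟨j, hj⟩ ⟨c / 4096, by omega⟩
  simp only at h1 h2 h3
  rw [vec_split c hc, Matrix.mulVec_add, Matrix.mulVec_add, hm, hm, hm, fast_eq,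
    vec_xor hF hω, vec_xor hF hω, h1, h2, h3]

end

end Cfsg.Agent.Lib.J3Lines
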