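import Cfsg.Agent.Lib.J3Lines.Run

/-!
# From the checks to the orbits on lines
-/

set_option autoImplicit false
set_option linter.unusedSectionVars false

namespace Cfsg.Agent.Lib.J3Lines

open Cfsg.Spor Matrix
open scoped MatrixGroups
open _root_.Cfsg.Agent.Lib.PermComp.Core (force force_eq allL allL_eq_true)
open _root_.Cfsg.Agent.Lib.F4.Basic

/-- Is a digit nonzero? -/
def nz (d : ℕ) : ℕ := sel (Nat.beq d 0) 0 1

/-- The number of nonzero digits. -/
def cnt (c : ℕ) : ℕ :=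
  nz (dig c 0) + nz (dig c 1) + nz (dig c 2) + nz (dig c 3) + nz (dig c 4) + nz (dig c 5) +
    nz (dig c 6) + nz (dig c 7) + nz (dig c 8)

/-- The generators. -/
def gensL : List ℕ :=
  [0, 1, 2, 3, 4, 5, 6, 7, 8, 9, 10, 11, 12, 13, 14, 15, 16, 17, 18, 19, 20, 21, 22, 23, 24, 25, 26,
    28, 29, 30, 31, 32, 33, 34, 35, 37, 38, 39, 40, 41, 42, 43, 44]

theorem gensL_mem {j : ℕ} (hj : validJ j = true) : j ∈ gensL := by
  have hj45 : j < 45 := by
    simp only [validJ, Bool.and_eq_true] at hj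
    exact Nat.blt_eq.mp hj.1.1
  revert hj
  interval_cases j <;> decide

/-- The tables of the generators. -/
def VT : List ℕ :=
  [0, 1, 2, 3, 4, 5, 6, 7, 8, 9, 10, 11, 12, 13, 14, 15, 16, 17, 18, 19, 20, 21, 22, 23, 24, 25, 26,
    28, 29, 30, 31, 32, 33, 34, 35, 37, 38, 39, 40, 41, 42, 43, 44].map fun j => TABS.getD j 0

theorem gensT_mem {j : ℕ} (hj : validJ j = true) : tabOf j ∈ VT := by
  have hj45 : j < 45 := by
    simp only [validJ, Bool.and_eq_true] at hj
    exact Nat.blt_eq.mp hj.1.1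
  revert hj
  interval_cases j <;> first | decide | decide +kernel

/-- Iterates of the action of a matrix on a code. -/
noncomputable def itF (j n : ℕ) : ℕ → ℕ :=
  Nat.rec (motive := fun _ => ℕ → ℕ) (fun c => c) (fun _ ih c => force (fast j c) ih) n

/-- The inverse of the matrix number `j` on the coordinate vector `k`. -/
noncomputable def invC (j k : ℕ) : ℕ := itF j 71 (4 ^ k)

theorem inv_ok : ∀ j : Fin 45, ∀ k : Fin 9,
    fast j (invC j k) = 4 ^ (k : ℕ) ∧ invC j k < 2 ^ 18 ∨ validJ j = false := by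
  decide +kernel

theorem pow4_ok : ∀ k : Fin 9, ∀ l : Fin 9, dig (4 ^ (k : ℕ)) l = if (l : ℕ) = k then 1 else 0 := by
  decide

section

variable {F : Type} [Field F] [Fintype F] {ω : F}

theorem vec_pow4 (z : F9) : vec ω (4 ^ idx z) = Pi.single z 1 := by
  funext w
  have h := pow4_ok ⟨idx z, idx_lt z⟩ ⟨idx w, idx_lt w⟩
  simp only at h
  rw [vec, h, Pi.single_apply]
  by_cases hw : w = z
  · subst hw
    simp [coef]
  · have : idx w ≠ idx z := fun h => hw (idx_inj _ _ h)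
    simp [coef, hw, this]

/-- The generators are invertible. -/
theorem isUnit_genM (hF : Fintype.card F = 4) (hω : ω ^ 2 + ω + 1 = 0) {j : ℕ}
    (hj : validJ j = true) : IsUnit (genM ω j) := by
  have hj45 : j < 45 := by
    simp only [validJ, Bool.and_eq_true] at hj
    exact Nat.blt_eq.mp hj.1.1
  have hk : ∀ z : F9, fast j (invC j (idx z)) = 4 ^ idx z ∧ invC j (idx z) < 2 ^ 18 := by
    intro z
    rcases inv_ok ⟨j, hj45⟩ ⟨idx z, idx_lt z⟩ with h | h
    · exact h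
    · simp only at h
      rw [hj] at h
      exact Bool.noConfusion h
  apply IsUnit.of_mul_eq_one (Matrix.of fun w z => vec ω (invC j (idx z)) w)
  ext w z
  have h1 := congrFun (fast_sound hF hω (by omega : j < 46) (hk z).2) w
  rw [(hk z).1, vec_pow4] at h1
  rw [Matrix.one_apply, Matrix.mul_apply]
  have e : ∑ y, genM ω j w y * (Matrix.of fun w z => vec ω (invC j (idx z)) w) y z =
      (genM ω j *ᵥ vec ω (invC j (idx z))) w := rfl
  rw [e, h1, Pi.single_apply]

/-- A generator as an element of the group. -/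
noncomputable def genU (hF : Fintype.card F = 4) (hω : ω ^ 2 + ω + 1 = 0) {j : ℕ}
    (hj : validJ j = true) : GL F9 F := (isUnit_genM hF hω hj).unit

theorem genU_val (hF : Fintype.card F = 4) (hω : ω ^ 2 + ω + 1 = 0) {j : ℕ}
    (hj : validJ j = true) : ((genU hF hω hj : GL F9 F) : Matrix F9 F9 F) = genM ω j := rfl

theorem idx_zOf : ∀ k : Fin 9, idx (zOf k) = k := by decide

theorem zOf_ne : ∀ k : Fin 9, (k : ℕ) ≠ 0 → zOf k ≠ 0 := by decide

theorem idx_ne : ∀ z : F9, z ≠ 0 → idx z ≠ 0 := by decide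

theorem genM_mem {j : ℕ} (hj : validJ j = true) : genM ω j ∈ j3Gens F ω := by
  have hj45 : j < 45 := by
    simp only [validJ, Bool.and_eq_true] at hj
    exact Nat.blt_eq.mp hj.1.1
  have h27 : j ≠ 27 := by
    rintro rfl
    revert hj
    decide
  have h36 : j ≠ 36 := by
    rintro rfl
    revert hj
    decide
  unfold genM
  split_ifs
  · exact Or.inl (Or.inl (Or.inl (Or.inl ⟨_, rfl⟩)))
  · exact Or.inl (Or.inl (Or.inl (Or.inr ⟨_, rfl⟩)))
  · exact Or.inl (Or.inl (Or.inr ⟨_, rfl⟩))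
  · exact Or.inl (Or.inr ⟨_, zOf_ne ⟨j - 27, by omega⟩ (by simp only; omega), rfl⟩)
  · exact Or.inr ⟨_, zOf_ne ⟨j - 36, by omega⟩ (by simp only; omega), rfl⟩

theorem genU_mem (hF : Fintype.card F = 4) (hω : ω ^ 2 + ω + 1 = 0) {j : ℕ}
    (hj : validJ j = true) : genU hF hω hj ∈ threeJ3 F ω :=
  Subgroup.subset_closure (genM_mem hj)

theorem exists_of_gens {M : Matrix F9 F9 F} (hM : M ∈ j3Gens F ω) :
    ∃ j, validJ j = true ∧ M = genM ω j := by
  have hv : ∀ z : F9, validJ (idx z) = true ∧ validJ (9 + idx z) = true ∧ validJ (18 + idx z) = true ∧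
      (z ≠ 0 → validJ (27 + idx z) = true ∧ validJ (36 + idx z) = true) := by decide
  have h9 : ∀ z : F9, idx z < 9 := idx_lt
  rcases hM with (((⟨Z, rfl⟩ | ⟨Z, rfl⟩) | ⟨Z, rfl⟩) | ⟨Z, hZ, rfl⟩) | ⟨Z, hZ, rfl⟩
  · refine ⟨idx Z, (hv Z).1, ?_⟩
    have := h9 Z
    simp [genM, this, zOf_idx]
  · refine ⟨9 + idx Z, (hv Z).2.1, ?_⟩
    have := h9 Z
    have h1 : ¬ 9 + idx Z < 9 := by omega
    have h2 : 9 + idx Z < 18 := by omega
    simp [genM, h1, h2, zOf_idx]
  · refine ⟨18 + idx Z, (hv Z).2.2.1, ?_⟩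
    have := h9 Z
    have h1 : ¬ 18 + idx Z < 9 := by omega
    have h2 : ¬ 18 + idx Z < 18 := by omega
    have h3 : 18 + idx Z < 27 := by omega
    simp [genM, h1, h2, h3, zOf_idx]
  · refine ⟨27 + idx Z, ((hv Z).2.2.2 hZ).1, ?_⟩
    have := h9 Z
    have h1 : ¬ 27 + idx Z < 9 := by omega
    have h2 : ¬ 27 + idx Z < 18 := by omega
    have h3 : ¬ 27 + idx Z < 27 := by omega
    have h4 : 27 + idx Z < 36 := by omega
    simp [genM, h1, h2, h3, h4, zOf_idx]
  · refine ⟨36 + idx Z, ((hv Z).2.2.2 hZ).2, ?_⟩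
    have := h9 Z
    have h1 : ¬ 36 + idx Z < 9 := by omega
    have h2 : ¬ 36 + idx Z < 18 := by omega
    have h3 : ¬ 36 + idx Z < 27 := by omega
    have h4 : ¬ 36 + idx Z < 36 := by omega
    have h5 : 36 + idx Z < 45 := by omega
    simp [genM, h1, h2, h3, h4, h5, zOf_idx]

/-- Codes and scalars. -/
theorem vec_om (hF : Fintype.card F = 4) (hω : ω ^ 2 + ω + 1 = 0) {c : ℕ} (hc : c < 2 ^ 18) :
    vec ω (fast 45 c) = ω • vec ω c := by
  rw [← fast_sound hF hω (by norm_num) hc]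
  have : genM ω 45 = Matrix.diagonal fun _ => ω := by
    simp [genM]
  rw [this]
  funext z
  simp [Matrix.mulVec_diagonal]

theorem vec_om2 (hF : Fintype.card F = 4) (hω : ω ^ 2 + ω + 1 = 0) {c : ℕ} (hc : c < 2 ^ 18) :
    vec ω (c ^^^ fast 45 c) = ω ^ 2 • vec ω c := by
  rw [vec_xor hF hω, vec_om hF hω hc, sq_eq hF hω, add_smul, one_smul, add_comm]

theorem mult_smul (hF : Fintype.card F = 4) (hω : ω ^ 2 + ω + 1 = 0) {c x : ℕ} (hc : c < 2 ^ 18)
    (h : mult c x) : ∃ a : F, a ≠ 0 ∧ vec ω x = a • vec ω c := by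
  have h0 := ne_zero_of_root hω
  rcases h with rfl | rfl | rfl
  · exact ⟨1, one_ne_zero, (one_smul _ _).symm⟩
  · exact ⟨ω, h0, vec_om hF hω hc⟩
  · exact ⟨ω ^ 2, pow_ne_zero _ h0, vec_om2 hF hω hc⟩

theorem coef_inj (hF : Fintype.card F = 4) (hω : ω ^ 2 + ω + 1 = 0) {a b : ℕ} (ha : a < 4)
    (hb : b < 4) (h : coef ω a = coef ω b) : a = b := by
  rw [coef_eq_emb _ ha, coef_eq_emb _ hb] at h
  have := emb_injective hF hω h
  simpa using this

theorem vec_inj (hF : Fintype.card F = 4) (hω : ω ^ 2 + ω + 1 = 0) {c c' : ℕ} (hc : c < 2 ^ 18)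
    (hc' : c' < 2 ^ 18) (h : vec ω c = vec ω c') : c = c' := by
  have h1 : ∀ k, k < 9 → dig c k = dig c' k := by
    intro k hk
    have h2 := congrFun h (zOf k)
    have h3 : idx (zOf k) = k := idx_zOf ⟨k, hk⟩
    simp only [vec, h3] at h2
    exact coef_inj hF hω (dig_lt _ _) (dig_lt _ _) h2
  have h0 := h1 0 (by norm_num)
  have h2 := h1 1 (by norm_num)
  have h3 := h1 2 (by norm_num)
  have h4 := h1 3 (by norm_num)
  have h5 := h1 4 (by norm_num)
  have h6 := h1 5 (by norm_num)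
  have h7 := h1 6 (by norm_num)
  have h8 := h1 7 (by norm_num)
  have h9 := h1 8 (by norm_num)
  simp only [dig] at h0 h2 h3 h4 h5 h6 h7 h8 h9
  norm_num at h0 h2 h3 h4 h5 h6 h7 h8 h9 hc hc'
  omega

theorem smul_mult (hF : Fintype.card F = 4) (hω : ω ^ 2 + ω + 1 = 0) {c x : ℕ} (hc : c < 2 ^ 18)
    (hx : x < 2 ^ 18) {a : F} (ha : a ≠ 0) (h : vec ω x = a • vec ω c) : mult c x := by
  obtain ⟨d, rfl⟩ := (emb_bijective hF hω).2 a
  fin_cases d
  · exact absurd rfl ha
  · left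
    apply vec_inj hF hω hx hc
    rw [h]
    exact one_smul _ _
  · right; left
    apply vec_inj hF hω hx (fast_lt _ _)
    rw [h, vec_om hF hω hc]
    rfl
  · right; right
    apply vec_inj hF hω hx (Nat.xor_lt_two_pow hc (fast_lt _ _))
    rw [h, vec_om2 hF hω hc]
    rfl

theorem vec_surj (hF : Fintype.card F = 4) (hω : ω ^ 2 + ω + 1 = 0) (v : F9 → F) :
    ∃ c, c < 2 ^ 18 ∧ vec ω c = v := by
  have hi : Function.Injective (fun c : Fin (2 ^ 18) => vec ω (c : ℕ)) := by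
    intro a b h
    exact Fin.ext (vec_inj hF hω a.2 b.2 h)
  have hb := (Fintype.bijective_iff_injective_and_card _).2 ⟨hi, by
    simp [hF, ZMod.card]⟩
  obtain ⟨c, hc⟩ := hb.2 v
  exact ⟨c, c.2, hc⟩

/-- Reaching a base vector. -/
def Reach (ω : F) (b c : ℕ) : Prop :=
  ∃ g ∈ threeJ3 F ω, ∃ a : F, a ≠ 0 ∧ (g : Matrix F9 F9 F) *ᵥ vec ω c = a • vec ω b

theorem Tree.reach (hF : Fintype.card F = 4) (hω : ω ^ 2 + ω + 1 = 0) {D n R : ℕ}
    (hT : Tree D n R) : ∀ i, i < n → Reach ω (code D 0) (code D i) := by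
  intro i
  induction i using Nat.strong_induction_on with
  | _ i ih =>
    intro hi
    by_cases h0 : i = 0
    · subst h0
      exact ⟨1, Subgroup.one_mem _, 1, one_ne_zero, by simp⟩
    · obtain ⟨h1, ⟨i', hi', h2⟩, _⟩ := hT.hgood i (by omega) hi
      obtain ⟨a, ha, h3⟩ := mult_smul hF hω (code_lt _ _) h2
      obtain ⟨g, hg, b, hb, h4⟩ := ih i' hi' (by omega)
      refine ⟨g * genU hF hω h1, Subgroup.mul_mem _ hg (genU_mem hF hω h1), a * b, mul_ne_zero ha hb, ?_⟩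
      have hj : gid D i < 46 := by
        simp only [validJ, Bool.and_eq_true] at h1
        have := Nat.blt_eq.mp h1.1.1
        omega
      rw [Matrix.GeneralLinearGroup.coe_mul, ← Matrix.mulVec_mulVec, genU_val,
        fast_sound hF hω hj (code_lt _ _), h3, Matrix.mulVec_smul, h4, smul_smul]

theorem Tree.reach_mult (hF : Fintype.card F = 4) (hω : ω ^ 2 + ω + 1 = 0) {D n R : ℕ}
    (hT : Tree D n R) {x : ℕ} (hx : tb R x = true) : Reach ω (code D 0) x := by
  obtain ⟨i, hi, h1⟩ := (hT.hR x).1 hx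
  obtain ⟨a, ha, h2⟩ := mult_smul hF hω (code_lt _ _) h1
  obtain ⟨g, hg, b, hb, h3⟩ := hT.reach hF hω i hi
  refine ⟨g, hg, a * b, mul_ne_zero ha hb, ?_⟩
  rw [h2, Matrix.mulVec_smul, h3, smul_smul]

/-- The lines of the list are distinct. -/
theorem Tree.inj (hF : Fintype.card F = 4) (hω : ω ^ 2 + ω + 1 = 0) {D n R : ℕ}
    (hT : Tree D n R) {i i' : ℕ} (hi : i < n) (hi' : i' < i) :
    (Submodule.span F {vec ω (code D i)}) ≠ Submodule.span F {vec ω (code D i')} := by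
  intro h
  obtain ⟨a, ha⟩ := (Submodule.span_singleton_eq_span_singleton).1 h.symm
  obtain ⟨_, _, h3⟩ := hT.hgood i (by omega) hi
  apply h3
  refine ⟨i', hi', smul_mult hF hω (code_lt _ _) (code_lt _ _) a.ne_zero ha.symm⟩

/-- The cardinality of an orbit on lines. -/
theorem Tree.ncard (hF : Fintype.card F = 4) (hω : ω ^ 2 + ω + 1 = 0) {D n R : ℕ}
    (hT : Tree D n R) (hb : vec ω (code D 0) = Pi.single (0 : F9) (1 : F))
    (hinv : ∀ i, i < n → ∀ j, validJ j = true → tb R (fast j (code D i)) = true) :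
    {L : Submodule F (F9 → F) | ∃ g ∈ threeJ3 F ω, L = F ∙ ((g : Matrix F9 F9 F) *ᵥ
      (Pi.single (0 : F9) (1 : F) : F9 → F))}.ncard = n := by
  classical
  -- the set of vectors on the lines
  let P : GL F9 F → Prop := fun g => ∀ i, i < n → ∃ i', i' < n ∧ ∃ a : F, a ≠ 0 ∧
    (g : Matrix F9 F9 F) *ᵥ vec ω (code D i) = a • vec ω (code D i')
  have hP1 : P 1 := fun i hi => ⟨i, hi, 1, one_ne_zero, by simp⟩
  have hPm : ∀ x y, P x → P y → P (x * y) := by
    intro x y hx hy i hi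
    obtain ⟨i1, h1, a, ha, h2⟩ := hy i hi
    obtain ⟨i2, h3, b, hb, h4⟩ := hx i1 h1
    refine ⟨i2, h3, a * b, mul_ne_zero ha hb, ?_⟩
    rw [Matrix.GeneralLinearGroup.coe_mul, ← Matrix.mulVec_mulVec, h2, Matrix.mulVec_smul, h4, smul_smul]
  have hPpow : ∀ x, P x → ∀ m : ℕ, P (x ^ m) := by
    intro x hx m
    induction m with
    | zero => simpa using hP1
    | succ m ih =>
      rw [pow_succ]
      exact hPm _ _ ih hx
  have hPg : ∀ g ∈ threeJ3 F ω, P g := by
    intro g hg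
    induction hg using Subgroup.closure_induction with
    | mem x hx =>
      obtain ⟨j, hj, hxj⟩ := exists_of_gens hx
      intro i hi
      have hj46 : j < 46 := by
        simp only [validJ, Bool.and_eq_true] at hj
        have := Nat.blt_eq.mp hj.1.1
        omega
      obtain ⟨i', hi', h1⟩ := (hT.hR _).1 (hinv i hi j hj)
      obtain ⟨a, ha, h2⟩ := mult_smul hF hω (code_lt _ _) h1
      refine ⟨i', hi', a, ha, ?_⟩
      rw [hxj, fast_sound hF hω hj46 (code_lt _ _), h2]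
    | one => exact hP1
    | mul x y _ _ hx hy => exact hPm x y hx hy
    | inv x _ hx =>
      have h1 : x⁻¹ = x ^ (Nat.card (GL F9 F) - 1) := by
        apply inv_eq_of_mul_eq_one_right
        rw [← pow_succ', Nat.sub_add_cancel Nat.card_pos, pow_card_eq_one']
      rw [h1]
      exact hPpow x hx _
  have hset : {L : Submodule F (F9 → F) | ∃ g ∈ threeJ3 F ω, L = F ∙ ((g : Matrix F9 F9 F) *ᵥ
      (Pi.single (0 : F9) (1 : F) : F9 → F))} =
      ↑((Finset.range n).image fun i => (F ∙ vec ω (code D i) : Submodule F (F9 → F))) := by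
    ext L
    simp only [Set.mem_ofPred_eq, Finset.coe_image, Set.mem_image, Finset.coe_range, Set.mem_Iio]
    constructor
    · rintro ⟨g, hg, rfl⟩
      obtain ⟨i', hi', a, ha, h1⟩ := hPg g hg 0 hT.hn
      refine ⟨i', hi', ?_⟩
      rw [← hb, h1]
      exact (Submodule.span_singleton_smul_eq (IsUnit.mk0 a ha) _).symm
    · rintro ⟨i, hi, rfl⟩
      obtain ⟨g, hg, a, ha, h1⟩ := hT.reach hF hω i hi
      refine ⟨g⁻¹, Subgroup.inv_mem _ hg, ?_⟩
      have h2 : ((g⁻¹ : GL F9 F) : Matrix F9 F9 F) *ᵥ (Pi.single (0 : F9) (1 : F) : F9 → F) =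
          a⁻¹ • vec ω (code D i) := by
        have h3 : vec ω (code D i) = a • (((g⁻¹ : GL F9 F) : Matrix F9 F9 F) *ᵥ
            (Pi.single (0 : F9) (1 : F) : F9 → F)) := by
          have h4 : ((g⁻¹ : GL F9 F) : Matrix F9 F9 F) *ᵥ ((g : Matrix F9 F9 F) *ᵥ vec ω (code D i)) =
              vec ω (code D i) := by
            rw [Matrix.mulVec_mulVec, ← Matrix.GeneralLinearGroup.coe_mul, inv_mul_cancel,
              Matrix.GeneralLinearGroup.coe_one, Matrix.one_mulVec]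
          rw [← h4, h1, hb, Matrix.mulVec_smul]
        rw [h3, smul_smul, inv_mul_cancel₀ ha, one_smul]
      rw [h2]
      exact (Submodule.span_singleton_smul_eq (IsUnit.mk0 _ (inv_ne_zero ha)) _).symm
  rw [hset, Set.ncard_coe_finset, Finset.card_image_of_injOn, Finset.card_range]
  intro i hi i' hi' h
  simp only [Finset.coe_range, Set.mem_Iio] at hi hi'
  rcases lt_trichotomy i i' with h1 | h1 | h1
  · exact absurd h.symm (hT.inj hF hω hi' h1)
  · exact h1
  · exact absurd h (hT.inj hF hω hi h1)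

theorem cube_coef (hF : Fintype.card F = 4) (hω : ω ^ 2 + ω + 1 = 0) {d : ℕ} (hd : d < 4) :
    (coef ω d) ^ 3 = ((nz d : ℕ) : F) := by
  have hs := cube_eq_one hF hω
  have n0 : nz 0 = 0 := rfl
  have n1 : nz 1 = 1 := rfl
  have n2 : nz 2 = 1 := rfl
  have n3 : nz 3 = 1 := rfl
  interval_cases d
  · simp [coef, n0]
  · simp [coef, n1]
  · simp [coef, n2, hs]
  · have : (ω ^ 2) ^ 3 = (ω ^ 3) ^ 2 := by ring
    simp [coef, n3, this, hs]

theorem sum_cube (hF : Fintype.card F = 4) (hω : ω ^ 2 + ω + 1 = 0) (c : ℕ) :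
    ∑ z, (vec ω c z) ^ 3 = ((cnt c : ℕ) : F) := by
  simp only [vec, cube_coef hF hω (dig_lt _ _)]
  rw [sum_F9]
  have e : ∀ a b : ZMod 3, idx (a, b) = a.val * 3 + b.val := fun _ _ => rfl
  have v0 : (0 : ZMod 3).val = 0 := rfl
  have v1 : (1 : ZMod 3).val = 1 := rfl
  have v2 : (2 : ZMod 3).val = 2 := rfl
  simp only [e, v0, v1, v2, cnt]
  norm_num

theorem even_cnt (hF : Fintype.card F = 4) (hω : ω ^ 2 + ω + 1 = 0) {c : ℕ}
    (h : ∑ z, (vec ω c z) ^ 3 = 0) : cnt c % 2 ≠ 1 := by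
  intro h1
  rw [sum_cube hF hω] at h
  have h2 : cnt c = 2 * (cnt c / 2) + 1 := by omega
  rw [h2] at h
  push_cast at h
  rw [two_eq_zero hF] at h
  simp at h

/-- Transitivity on the vectors with an even number of nonzero coordinates. -/
theorem Tree.transitive (hF : Fintype.card F = 4) (hω : ω ^ 2 + ω + 1 = 0) {D n R : ℕ}
    (hT : Tree D n R) (hiso : ∀ c, c < 2 ^ 18 → c = 0 ∨ cnt c % 2 = 1 ∨ tb R c = true)
    (v w : F9 → F) (hv : v ≠ 0) (hw : w ≠ 0) (hv3 : ∑ z, (v z) ^ 3 = 0) (hw3 : ∑ z, (w z) ^ 3 = 0) :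
    ∃ g ∈ threeJ3 F ω, ∃ c : F, c ≠ 0 ∧ (g : Matrix F9 F9 F) *ᵥ v = c • w := by
  have hzero : vec ω 0 = (0 : F9 → F) := by
    funext z
    simp [vec, dig, coef]
  have key : ∀ u : F9 → F, u ≠ 0 → ∑ z, (u z) ^ 3 = 0 → ∃ g ∈ threeJ3 F ω, ∃ a : F, a ≠ 0 ∧
      (g : Matrix F9 F9 F) *ᵥ u = a • vec ω (code D 0) := by
    intro u hu hu3
    obtain ⟨c, hc, rfl⟩ := vec_surj hF hω u
    rcases hiso c hc with h | h | h
    · subst h
      exact absurd hzero hu
    · exact absurd h (even_cnt hF hω hu3)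
    · exact hT.reach_mult hF hω h
  obtain ⟨g1, hg1, a, ha, h1⟩ := key v hv hv3
  obtain ⟨g2, hg2, b, hb, h2⟩ := key w hw hw3
  refine ⟨g2⁻¹ * g1, Subgroup.mul_mem _ (Subgroup.inv_mem _ hg2) hg1, a * b⁻¹,
    mul_ne_zero ha (inv_ne_zero hb), ?_⟩
  have h4 : ((g2⁻¹ : GL F9 F) : Matrix F9 F9 F) *ᵥ ((g2 : Matrix F9 F9 F) *ᵥ w) = w := by
    rw [Matrix.mulVec_mulVec, ← Matrix.GeneralLinearGroup.coe_mul, inv_mul_cancel,
      Matrix.GeneralLinearGroup.coe_one, Matrix.one_mulVec]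
  rw [h2, Matrix.mulVec_smul] at h4
  rw [Matrix.GeneralLinearGroup.coe_mul, ← Matrix.mulVec_mulVec, h1, Matrix.mulVec_smul]
  conv_rhs => rw [← h4]
  rw [smul_smul, mul_assoc, inv_mul_cancel₀ hb, mul_one]

end

/-- The check for the whole space. -/
noncomputable def isoOK (R c : ℕ) : Bool :=
  Nat.beq c 0 || Nat.beq (Nat.mod (cnt c) 2) 1 || tb R c

/-- The check that a list of lines is invariant. -/
noncomputable def invOK (D n Y : ℕ) (i : ℕ) : Bool :=
  Nat.ble n i || (force (code D i) fun c => allL (fun T => tb Y (fastT T c)) VT)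

theorem invOK_spec {D n Y k M : ℕ} (hk : n ≤ M * 2 ^ k)
    (h : ∀ m, m < M → allR (invOK D n Y) k (m * 2 ^ k) = true) :
    ∀ i, i < n → ∀ j, validJ j = true → tb Y (fast j (code D i)) = true := by
  intro i hi j hj
  have hp : 0 < 2 ^ k := by positivity
  have hm : i / 2 ^ k < M := by
    rw [Nat.div_lt_iff_lt_mul hp]
    omega
  have h1 := allR_spec _ k _ (h _ hm) i (Nat.div_mul_le_self _ _) (by
    have := Nat.div_add_mod i (2 ^ k)
    have h3 := Nat.mod_lt i hp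
    rw [Nat.mul_comm] at this
    omega)
  simp only [invOK, Bool.or_eq_true] at h1
  rcases h1 with h1 | h1
  · have := Nat.ble_eq.mp h1
    omega
  · rw [force_eq, allL_eq_true] at h1
    have h4 := h1 (tabOf j) (gensT_mem hj)
    have h5 : fast j (code D i) = fastT (tabOf j) (code D i) := by
      unfold fast
      rw [force_eq]
    rw [h5]
    exact h4

theorem isoOK_spec {R : ℕ} (h : ∀ m, m < 4 → allR (isoOK R) 16 (m * 2 ^ 16) = true) :
    ∀ c, c < 2 ^ 18 → c = 0 ∨ cnt c % 2 = 1 ∨ tb R c = true := by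
  intro c hc
  have hm : c / 2 ^ 16 < 4 := by omega
  have h1 := allR_spec _ 16 _ (h _ hm) c (Nat.div_mul_le_self _ _) (by omega)
  simp only [isoOK, Bool.or_eq_true] at h1
  rcases h1 with (h1 | h1) | h1
  · exact Or.inl (Nat.eq_of_beq_eq_true h1)
  · exact Or.inr (Or.inl (Nat.eq_of_beq_eq_true h1))
  · exact Or.inr (Or.inr h1)

end Cfsg.Agent.Lib.J3Lines
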