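import Cfsg.Agent.Lib.J3Lines.Gens

/-!
# The walk through a list of lines, in the kernel
-/

set_option autoImplicit false

namespace Cfsg.Agent.Lib.J3Lines

open _root_.Cfsg.Agent.Lib.PermComp.Core (force force_eq)

/-- Membership in a bit mask. -/
def tb (Y c : ℕ) : Bool := Nat.beq (Nat.land (Nat.shiftRight Y (Nat.add c 32)) 1) 1

theorem tb_eq (Y c : ℕ) : tb Y c = Y.testBit (c + 32) := by
  have h : Nat.land (Nat.shiftRight Y (Nat.add c 32)) 1 = (Y >>> (c + 32)) % 2 := Nat.and_one_is_mod _
  rw [tb, h, Nat.testBit_eq_decide_div_mod_eq, Nat.shiftRight_eq_div_pow]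
  by_cases h1 : Y / 2 ^ (c + 32) % 2 = 1
  · simp [h1]
  · have h2 : Y / 2 ^ (c + 32) % 2 = 0 := by omega
    simp only [h2]
    rfl

/-- A selection. -/
def sel (b : Bool) (t e : ℕ) : ℕ := Bool.rec e t b

@[simp] theorem sel_true (t e : ℕ) : sel true t e = t := rfl
@[simp] theorem sel_false (t e : ℕ) : sel false t e = e := rfl

/-- Add the three nonzero vectors of a line to a bit mask.  The bits below `32` are not part of the
mask: the kernel hashes a big literal by its low bits, and they have to change at every step. -/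
noncomputable def addLine (acc c : ℕ) : ℕ :=
  force (fast 45 c) fun a =>
    Nat.xor (Nat.lor (Nat.lor (Nat.lor acc (Nat.shiftLeft 1 (Nat.add c 32)))
      (Nat.shiftLeft 1 (Nat.add a 32))) (Nat.shiftLeft 1 (Nat.add (Nat.xor c a) 32))) c

/-- The codes in the line of `c` (when `c` is nonzero). -/
def mult (c x : ℕ) : Prop := x = c ∨ x = fast 45 c ∨ x = c ^^^ fast 45 c

theorem testBit_one_shiftLeft (c x : ℕ) : (Nat.shiftLeft 1 c).testBit x = decide (c = x) := by
  have : Nat.shiftLeft 1 c = 2 ^ c := by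
    rw [show Nat.shiftLeft 1 c = 1 <<< c from rfl, Nat.one_shiftLeft]
  rw [this, Nat.testBit_two_pow]

theorem tb_addLine (acc c x : ℕ) (hc : c < 2 ^ 18) :
    tb (addLine acc c) x = true ↔ tb acc x = true ∨ mult c x := by
  unfold addLine mult
  rw [force_eq, tb_eq, tb_eq]
  have e1 : ∀ a b : ℕ, Nat.lor a b = a ||| b := fun _ _ => rfl
  have e2 : ∀ a b : ℕ, Nat.xor a b = a ^^^ b := fun _ _ => rfl
  have e3 : ∀ a b : ℕ, Nat.add a b = a + b := fun _ _ => rfl
  have hc2 : c.testBit (x + 32) = false := by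
    apply Nat.testBit_lt_two_pow
    exact lt_of_lt_of_le hc (Nat.pow_le_pow_right (by norm_num) (by omega))
  simp only [e1, e2, e3, Nat.testBit_xor, hc2, Bool.xor_false, Nat.testBit_or,
    testBit_one_shiftLeft, Bool.or_eq_true, decide_eq_true_eq, Nat.add_right_cancel_iff]
  constructor
  · rintro (((h | h) | h) | h)
    · exact Or.inl h
    · exact Or.inr (Or.inl h.symm)
    · exact Or.inr (Or.inr (Or.inl h.symm))
    · exact Or.inr (Or.inr (Or.inr h.symm))
  · rintro (h | h | h | h)
    · exact Or.inl (Or.inl (Or.inl h))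
    · exact Or.inl (Or.inl (Or.inr h.symm))
    · exact Or.inl (Or.inr h.symm)
    · exact Or.inr h.symm

/-- The code of the record number `i`. -/
def code (D i : ℕ) : ℕ := Nat.land (Nat.shiftRight D (Nat.mul 24 i)) 262143

/-- The matrix of the record number `i`. -/
def gid (D i : ℕ) : ℕ := Nat.land (Nat.shiftRight D (Nat.add (Nat.mul 24 i) 18)) 63

theorem code_lt (D i : ℕ) : code D i < 2 ^ 18 :=
  Nat.and_lt_two_pow _ (by norm_num : (262143 : ℕ) < 2 ^ 18)

/-- The numbers of the generators. -/
def validJ (j : ℕ) : Bool :=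
  (Nat.blt j 45) && !(Nat.beq j 27) && !(Nat.beq j 36)

/-- The test for a record. -/
noncomputable def recOK (acc c j : ℕ) : Bool :=
  tb acc (fast j c) && !(tb acc c) && validJ j

/-- One record. -/
noncomputable def step (D n i acc : ℕ) : ℕ :=
  sel (Nat.ble n i) acc
    (sel (Nat.beq acc 0) 0
      (force (code D i) fun c => sel (recOK acc c (gid D i)) (addLine acc c) 0))

/-- The records from `lo` to `lo + 2 ^ k`. -/
noncomputable def runB (D n k : ℕ) : ℕ → ℕ → ℕ :=
  Nat.rec (motive := fun _ => ℕ → ℕ → ℕ) (step D n)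
    (fun k ih lo acc => force (ih lo acc) fun a =>
      force (Nat.add lo (Nat.pow 2 k)) fun lo' => ih lo' a) k

theorem runB_succ (D n k lo acc : ℕ) :
    runB D n (k + 1) lo acc = runB D n k (lo + 2 ^ k) (runB D n k lo acc) := by
  have e : runB D n (k + 1) lo acc = force (runB D n k lo acc) fun a =>
      force (Nat.add lo (Nat.pow 2 k)) fun lo' => runB D n k lo' a := rfl
  rw [e, force_eq, force_eq]
  rfl

theorem step_zero (D n i : ℕ) : step D n i 0 = 0 := by
  unfold step
  cases Nat.ble n i <;> rfl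

theorem runB_zero (D n k : ℕ) : ∀ lo, runB D n k lo 0 = 0 := by
  induction k with
  | zero => intro lo; exact step_zero D n lo
  | succ k ih =>
    intro lo
    rw [runB_succ, ih, ih]

/-- The invariant of the walk. -/
def Inv (D n lo acc : ℕ) : Prop :=
  ∀ x, tb acc x = true ↔ ∃ i, i < lo ∧ i < n ∧ mult (code D i) x

/-- What a record gives. -/
def GoodR (D i : ℕ) : Prop :=
  validJ (gid D i) = true ∧ (∃ i' < i, mult (code D i') (fast (gid D i) (code D i))) ∧
    ¬ ∃ i' < i, mult (code D i') (code D i)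

theorem step_spec {D n i acc : ℕ} (hI : Inv D n i acc) (h0 : step D n i acc ≠ 0) :
    Inv D n (i + 1) (step D n i acc) ∧ (i < n → GoodR D i) := by
  unfold step at h0 ⊢
  by_cases hn : n ≤ i
  · have h1 : Nat.ble n i = true := Nat.ble_eq.mpr hn
    rw [h1, sel_true]
    refine ⟨fun x => ?_, fun h => absurd h (by omega)⟩
    rw [hI x]
    constructor
    · rintro ⟨j, hj, hj2, hj3⟩
      exact ⟨j, by omega, hj2, hj3⟩
    · rintro ⟨j, hj, hj2, hj3⟩
      exact ⟨j, by omega, hj2, hj3⟩
  · have h1 : Nat.ble n i = false := by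
      rw [← Bool.not_eq_true, Nat.ble_eq]
      exact hn
    rw [h1, sel_false] at h0 ⊢
    cases h2 : Nat.beq acc 0 with
    | true => rw [h2] at h0; exact absurd rfl h0
    | false =>
      rw [h2, sel_false] at h0
      rw [sel_false]
      rw [force_eq] at h0 ⊢
      cases h3 : recOK acc (code D i) (gid D i) with
      | false => rw [h3] at h0; exact absurd rfl h0
      | true =>
        rw [sel_true]
        unfold recOK at h3
        simp only [Bool.and_eq_true, Bool.not_eq_true'] at h3
        obtain ⟨⟨h4, h5⟩, h6⟩ := h3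
        have hi : i < n := by omega
        refine ⟨fun x => ?_, fun _ => ⟨h6, ?_, ?_⟩⟩
        · rw [tb_addLine _ _ _ (code_lt D i), hI x]
          constructor
          · rintro (⟨j, hj, hj2, hj3⟩ | h)
            · exact ⟨j, by omega, hj2, hj3⟩
            · exact ⟨i, by omega, hi, h⟩
          · rintro ⟨j, hj, hj2, hj3⟩
            by_cases hji : j = i
            · subst hji
              exact Or.inr hj3
            · exact Or.inl ⟨j, by omega, hj2, hj3⟩
        · obtain ⟨j, hj, _, hj3⟩ := (hI _).1 h4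
          exact ⟨j, hj, hj3⟩
        · rintro ⟨j, hj, hj3⟩
          have : tb acc (code D i) = true := (hI _).2 ⟨j, hj, by omega, hj3⟩
          rw [this] at h5
          exact Bool.noConfusion h5

theorem runB_spec {D n : ℕ} (k : ℕ) : ∀ {lo acc : ℕ}, Inv D n lo acc → runB D n k lo acc ≠ 0 →
    Inv D n (lo + 2 ^ k) (runB D n k lo acc) ∧ ∀ i, lo ≤ i → i < lo + 2 ^ k → i < n → GoodR D i := by
  induction k with
  | zero =>
    intro lo acc hI h0
    obtain ⟨h1, h2⟩ := step_spec hI h0
    refine ⟨h1, fun i h3 h4 h5 => ?_⟩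
    have : i = lo := by simpa using (by omega : i = lo)
    subst this
    exact h2 h5
  | succ k ih =>
    intro lo acc hI h0
    rw [runB_succ] at h0 ⊢
    have h1 : runB D n k lo acc ≠ 0 := by
      intro h
      rw [h, runB_zero] at h0
      exact h0 rfl
    obtain ⟨h2, h3⟩ := ih hI h1
    obtain ⟨h4, h5⟩ := ih h2 h0
    have e : lo + 2 ^ k + 2 ^ k = lo + 2 ^ (k + 1) := by rw [pow_succ]; ring
    rw [e] at h4 h5
    refine ⟨h4, fun i h6 h7 h8 => ?_⟩
    by_cases h9 : i < lo + 2 ^ k
    · exact h3 i h6 h9 h8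
    · exact h5 i (by omega) h7 h8

/-- The first bit mask. -/
noncomputable def acc0 (c : ℕ) : ℕ := addLine 0 c

theorem tb_zero (x : ℕ) : tb 0 x = false := by
  rw [tb_eq, Nat.zero_testBit]

theorem inv0 (D n : ℕ) (hn : 0 < n) : Inv D n 1 (acc0 (code D 0)) := by
  intro x
  unfold acc0
  rw [tb_addLine _ _ _ (code_lt D 0), tb_zero]
  constructor
  · rintro (h | h)
    · exact Bool.noConfusion h
    · exact ⟨0, by omega, hn, h⟩
  · rintro ⟨i, hi, _, h⟩
    have : i = 0 := by omega
    subst this
    exact Or.inr h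

/-- The results of a walk. -/
structure Tree (D n R : ℕ) : Prop where
  hn : 0 < n
  hR : ∀ x, tb R x = true ↔ ∃ i, i < n ∧ mult (code D i) x
  hgood : ∀ i, 1 ≤ i → i < n → GoodR D i

/-- A part of a walk. -/
structure Partial (D n lo acc : ℕ) : Prop where
  hn : 0 < n
  hI : Inv D n lo acc
  hgood : ∀ i, 1 ≤ i → i < lo → i < n → GoodR D i

theorem Partial.init (D n : ℕ) (hn : 0 < n) : Partial D n 1 (acc0 (code D 0)) :=
  ⟨hn, inv0 D n hn, fun i h1 h2 _ => absurd h2 (by omega)⟩

theorem Partial.next {D n lo acc k acc' : ℕ} (h : Partial D n lo acc)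
    (hr : runB D n k lo acc = acc') (h0 : acc' ≠ 0) : Partial D n (lo + 2 ^ k) acc' := by
  subst hr
  obtain ⟨h1, h2⟩ := runB_spec k h.hI h0
  refine ⟨h.hn, h1, fun i h3 h4 h5 => ?_⟩
  by_cases h6 : i < lo
  · exact h.hgood i h3 h6 h5
  · exact h2 i (by omega) h4 h5

theorem Partial.tree {D n lo acc : ℕ} (h : Partial D n lo acc) (hn : n ≤ lo) : Tree D n acc := by
  refine ⟨h.hn, fun x => ?_, fun i h3 h4 => h.hgood i h3 (by omega) h4⟩
  rw [h.hI x]
  constructor
  · rintro ⟨i, _, h4, h5⟩
    exact ⟨i, h4, h5⟩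
  · rintro ⟨i, h4, h5⟩
    exact ⟨i, by omega, h4, h5⟩

/-- A check for all numbers between `lo` and `lo + 2 ^ k`. -/
noncomputable def allR (f : ℕ → Bool) (k : ℕ) : ℕ → Bool :=
  Nat.rec (motive := fun _ => ℕ → Bool) f
    (fun k ih lo => Bool.rec (motive := fun _ => Bool) false (force (Nat.add lo (Nat.pow 2 k)) ih) (ih lo)) k

theorem allR_spec (f : ℕ → Bool) (k : ℕ) : ∀ lo, allR f k lo = true →
    ∀ i, lo ≤ i → i < lo + 2 ^ k → f i = true := by
  induction k with
  | zero =>
    intro lo h i h1 h2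
    have : i = lo := by simpa using (by omega : i = lo)
    subst this
    exact h
  | succ k ih =>
    intro lo h i h1 h2
    have e : allR f (k + 1) lo = Bool.rec (motive := fun _ => Bool) false (allR f k (lo + 2 ^ k)) (allR f k lo) := by
      have e' : allR f (k + 1) lo = Bool.rec (motive := fun _ => Bool) false
          (force (Nat.add lo (Nat.pow 2 k)) (allR f k)) (allR f k lo) := rfl
      rw [e', force_eq]
      rfl
    rw [e] at h
    cases h3 : allR f k lo with
    | false => rw [h3] at h; exact Bool.noConfusion h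
    | true =>
      rw [h3] at h
      have h4 : allR f k (lo + 2 ^ k) = true := h
      by_cases h5 : i < lo + 2 ^ k
      · exact ih lo h3 i h1 h5
      · refine ih _ h4 i (by omega) ?_
        rw [pow_succ] at h2
        omega

end Cfsg.Agent.Lib.J3Lines
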